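import Cfsg.Agent.H749.KKL.TrE8
import Cfsg.Agent.H392.KKL.Dim
import Cfsg.Agent.H167.KKL.Red

/-!
# S4577, row `E₈(q)`, `q` odd: the involutions of `E₈(k)`: trace and dimension (helper196)
-/

set_option autoImplicit false
set_option linter.unusedSectionVars false

namespace Cfsg.Agent.H196.KS

open CoxeterSystem Cfsg Cfsg.Lie Cfsg.Lie.ChevalleyDatum
open Cfsg.Agent.ChevalleyStructure Cfsg.Agent.ChevalleyStructure.Elts Cfsg.Agent.ChevalleyStructure.CoxeterGeom
  Cfsg.Agent.ChevalleyStructure.CoxeterGeomTypes Cfsg.Agent.ChevalleyStructure.NPerm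
open Cfsg.Agent.Tits.Roots Cfsg.Agent.Tits.Core Cfsg.Agent.Nodes Cfsg.Agent.Nodes.Reps Cfsg.Agent.Nodes.BNOf
  Cfsg.Agent.Nodes.RGDChev Cfsg.Agent.Nodes.Bruhat Cfsg.Agent.Nodes.NormalForm
open Cfsg.Agent.KFacts.RgdField Cfsg.Agent.KFacts.RgdChevCoord
open Cfsg.Agent.BpExc Cfsg.Agent.BpExc.TorCent Cfsg.Agent.BpExc.TorChev Cfsg.Agent.BpExc.Tow
  Cfsg.Agent.BpExc.TowChev Cfsg.Agent.GpExc.Field
open Cfsg.Agent.OddHalf.NI.ModelChev Cfsg.Agent.H557.SignTorus Cfsg.Agent.H557.OrbE8 Cfsg.Agent.H557.ToralTypes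
open Cfsg.Agent.H167.KKL Cfsg.Agent.H749.KKL
open Cfsg.Agent.H392.KKL (rho finrank_conj finrank_ker_diag rho_apply)

variable (hp : IsType chevE8 8 CoxeterMatrix.E₈) {k : Type} [Field k] (p : ℕ) [Fact p.Prime] [CharP k p]

include p in
/-- the `(-1)`-eigenspace of an involution of the torus -/
theorem finrank_mask (hk : LocFin k) (h2 : (2 : k) ≠ 0) (m : ℕ) :
    Module.finrank k ↥(LinearMap.ker (rho chevE8 k (th hp (sg k 8 m)) + 1)) = cnt m := by
  have hneg : (-1 : k) ≠ 1 := by
    intro h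
    apply h2
    linear_combination -h
  have e1 : rho chevE8 k (th hp (sg k 8 m)) + 1 = Matrix.toLin' (Matrix.diagonal
      (fun i : chevE8.Idx => H892.El.dd hp (th hp (sg k 8 m)) i + 1)) := by
    rw [rho_apply, H892.El.coe_TT hp (r := p) hk (th_mem hp _)]
    have : (1 : Module.End k (chevE8.Idx → k)) = Matrix.toLin' (1 : Matrix chevE8.Idx chevE8.Idx k) := by
      rw [Matrix.toLin'_one]; rfl
    rw [this, ← map_add, ← Matrix.diagonal_one, Matrix.diagonal_add]
  rw [e1, finrank_ker_diag]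
  have hw : ∀ s : Fin chevE8.nroots, (H892.El.dd hp (th hp (sg k 8 m)) (Sum.inr s) + 1 = 0 ↔
      par 8 (m &&& cr s) = true) := by
    intro s
    have h1 : H892.El.dd hp (th hp (sg k 8 m)) (Sum.inr s) = ch hp (vec chevE8 8 s) (th hp (sg k 8 m)) := rfl
    rw [h1, ch_mask hp s.2 m]
    split_ifs with h
    · simp [h]
    · constructor
      · intro h3
        exact (h2 (by linear_combination h3)).elim
      · intro h3
        exact (h h3).elim
  have hl : ∀ s : Fin chevE8.rank, H892.El.dd hp (th hp (sg k 8 m)) (Sum.inl s) + 1 ≠ 0 := by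
    intro s
    have h1 : H892.El.dd hp (th hp (sg k 8 m)) (Sum.inl s) = (1 : k) := rfl
    rw [h1]
    intro h
    exact h2 (by linear_combination h)
  have e2 : Nat.card {i : chevE8.Idx // H892.El.dd hp (th hp (sg k 8 m)) i + 1 = 0} =
      Nat.card ↥((Finset.range 240).filter fun s => par 8 (m &&& cr s) = true) := by
    refine Nat.card_congr
      { toFun := fun i => match i with
          | ⟨Sum.inl s, h⟩ => (hl s h).elim
          | ⟨Sum.inr s, h⟩ => ⟨s, by
            rw [Finset.mem_filter, Finset.mem_range]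
            exact ⟨nroots_E8 ▸ s.2, (hw s).1 h⟩⟩
        invFun := fun s => ⟨Sum.inr ⟨s.1, nroots_E8.symm ▸ Finset.mem_range.1 (Finset.mem_filter.1 s.2).1⟩, by
          have h3 := Finset.mem_filter.1 s.2
          exact (hw _).2 h3.2⟩
        left_inv := ?_
        right_inv := ?_ }
    · rintro ⟨i | i, h⟩
      · exact (hl i h).elim
      · rfl
    · rintro ⟨s, hs⟩
      rfl
  rw [e2, Nat.card_eq_fintype_card, Fintype.card_coe]
  unfold cnt
  show ((List.range 240).filter fun r => decide (par 8 (m &&& cr r) = true)).length = _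
  simp only [Bool.decide_eq_true]

include hp p in
/-- **an involution of `E₈(k)`**: trace 24 and 112, or trace `-8` and 128 -/
theorem inv_cases [IsAlgClosed k] (hk : LocFin k) (hp2 : p ≠ 2) {x : ↥(chevE8.group k)} (hx : x * x = 1)
    (h1 : x ≠ 1) :
    (trL chevE8 x = 24 ∧ Module.finrank k ↥(LinearMap.ker (rho chevE8 k x + 1)) = 112) ∨
      (trL chevE8 x = -8 ∧ Module.finrank k ↥(LinearMap.ker (rho chevE8 k x + 1)) = 128) := by
  have h2 : (2 : k) ≠ 0 := by
    have h3 : ((2 : ℕ) : k) ≠ 0 := by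
      intro h
      rw [CharP.cast_eq_zero_iff k p] at h
      exact hp2 ((Nat.prime_dvd_prime_iff_eq Fact.out Nat.prime_two).1 h)
    exact_mod_cast h3
  obtain ⟨g, hg⟩ := toral_one hp p hk hp2 hx
  have hgg : g * x * g⁻¹ * (g * x * g⁻¹) = 1 := by
    have : g * x * g⁻¹ * (g * x * g⁻¹) = g * (x * x) * g⁻¹ := by group
    rw [this, hx]; group
  obtain ⟨m, hm, e⟩ := exists_mask hp hk hg hgg
  have hm0 : g * x * g⁻¹ ≠ 1 := by
    intro h
    apply h1
    have : x = g⁻¹ * (g * x * g⁻¹) * g := by group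
    rw [this, h]; group
  rw [← H749.KKL.trL_conj g x, ← finrank_conj (rho chevE8 k) g x, ← e, trL_mask hp p hk, finrank_mask hp p hk h2]
  rcases cnt_cases hm with h3 | h3 | h3
  · right
    rw [h3.1]
    refine ⟨?_, rfl⟩
    push_cast; ring
  · left
    rw [h3]
    refine ⟨?_, rfl⟩
    push_cast; ring
  · exfalso
    apply hm0
    rw [← e]
    -- all characters are trivial, so the matrix is the identity
    apply Subtype.ext
    apply Units.ext
    rw [H892.El.coe_TT hp (r := p) hk (th_mem hp _)]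
    have h4 : H892.El.dd hp (th hp (sg k 8 m)) = fun _ => 1 := by
      funext i
      rcases i with i | i
      · rfl
      · have h5 : H892.El.dd hp (th hp (sg k 8 m)) (Sum.inr i) = ch hp (vec chevE8 8 i) (th hp (sg k 8 m)) := rfl
        rw [h5, ch_mask hp i.2 m]
        rw [if_neg]
        intro h6
        have h7 : (i : ℕ) ∈ (List.range 240).filter fun r => par 8 (m &&& cr r) := by
          rw [List.mem_filter]
          refine ⟨List.mem_range.2 (nroots_E8 ▸ i.2), h6⟩
        have h8 : (List.range 240).filter (fun r => par 8 (m &&& cr r)) = [] := List.length_eq_zero_iff.1 h3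
        rw [h8] at h7
        exact List.not_mem_nil h7
    rw [h4, Matrix.diagonal_one]
    rfl

end Cfsg.Agent.H196.KS
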