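import Cfsg.Agent.H196.KS.Orb
import Cfsg.Agent.H749.KKL.TrE8
import Cfsg.Agent.H392.KKL.Dim
import Cfsg.Agent.H167.KKL.Red

/-!
# S4577, row `E₈(q)`, `q` odd: the four trace patterns (helper196)
-/

set_option autoImplicit false
set_option linter.unusedSectionVars false

open Cfsg

namespace Cfsg.Agent.H196.KS

open Cfsg.Agent.H613.KS
open Cfsg.Agent.H392.KKL (rho finrank_conj)

universe u

section Abs

variable {S : Type*} [Group S] {k : Type*} [Field k] {V : Type*} [AddCommGroup V] [Module k V]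

/-- dimension of the `(-1)`-eigenspace -/
noncomputable def mi (ρ : S →* Module.End k V) (d : S) : ℕ := Module.finrank k ↥(LinearMap.ker (ρ d + 1))

/-- dimension of the fixed space of `D` -/
noncomputable def cd (ρ : S →* Module.End k V) (D : Subgroup S) : ℕ :=
  Module.finrank k ↥(⨅ d ∈ D, LinearMap.ker (ρ d - 1))

/-- dimension of the weight space of `l` -/
noncomputable def wt (ρ : S →* Module.End k V) (D : Subgroup S) (l : D →* ℤˣ) : ℕ :=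
  Module.finrank k ↥(⨅ d : D, LinearMap.ker (ρ (d : S) - algebraMap k _ (((l d : ℤ)) : k)))

/-- the conclusion of the trace formula `TR` for `D`, `y`, `ρ` -/
def TRFor (D : Subgroup S) (y : S) (ρ : S →* Module.End k V) : Prop :=
  ∀ d1 d2 d3 : S, d1 ∈ D → d2 ∈ D → d3 ∈ D → d1 ≠ 1 → d2 ≠ 1 → d3 ≠ 1 →
    (∀ i : ℕ, d2 ≠ y ^ i * d1 * (y ^ i)⁻¹) → (∀ i : ℕ, d3 ≠ y ^ i * d1 * (y ^ i)⁻¹) →
    (∀ i : ℕ, d3 ≠ y ^ i * d2 * (y ^ i)⁻¹) →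
    ∃ A a1 a2 a3 : ℕ, mi ρ d1 = 2 * (A + a1) ∧ mi ρ d2 = 2 * (A + a2) ∧ mi ρ d3 = 2 * (A + a3) ∧ A = a1 + a2 + a3 ∧
      Module.finrank k V = cd ρ D + 5 * A ∧
      ∀ l : D →* ℤˣ, l ≠ 1 → ∃ a ∈ ({a1, a2, a3} : Set ℕ), wt ρ D l = a

theorem mi_conj (ρ : S →* Module.End k V) (g t : S) : mi ρ (g * t * g⁻¹) = mi ρ t := finrank_conj ρ g t

/-- **the four patterns** -/
theorem patterns {D : Subgroup S} (h : E16 D) {y : S} (hy : ∀ d : S, y * d * y⁻¹ ∈ D ↔ d ∈ D)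
    (h5 : ∀ d ∈ D, y ^ 5 * d = d * y ^ 5) (hf : ∀ d ∈ D, d ≠ 1 → y * d ≠ d * y) (ρ : S →* Module.End k V)
    (hV : Module.finrank k V = 248) (hm : ∀ d ∈ D, d ≠ 1 → mi ρ d = 112 ∨ mi ρ d = 128) (hTR : TRFor D y ρ) :
    ((∀ d ∈ D, d ≠ 1 → mi ρ d = 112) ∧ cd ρ D = 38 ∧ ∀ l : D →* ℤˣ, l ≠ 1 → wt ρ D l = 14) ∨
    (∃ t ∈ D, t ≠ 1 ∧ (∀ d ∈ D, d ≠ 1 → (mi ρ d = 128 ↔ ∃ i : ℕ, d = y ^ i * t * (y ^ i)⁻¹)) ∧ cd ρ D = 28 ∧
      ∀ l : D →* ℤˣ, l ≠ 1 → wt ρ D l = 12 ∨ wt ρ D l = 20) ∨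
    (∃ t ∈ D, t ≠ 1 ∧ (∀ d ∈ D, d ≠ 1 → (mi ρ d = 112 ↔ ∃ i : ℕ, d = y ^ i * t * (y ^ i)⁻¹)) ∧ cd ρ D = 18 ∧
      ∀ l : D →* ℤˣ, l ≠ 1 → wt ρ D l = 10 ∨ wt ρ D l = 18) ∨
    ((∀ d ∈ D, d ≠ 1 → mi ρ d = 128) ∧ cd ρ D = 8 ∧ ∀ l : D →* ℤˣ, l ≠ 1 → wt ρ D l = 16) := by
  classical
  have hex : ∃ d1 ∈ D, d1 ≠ (1 : S) := by
    by_contra hc
    push Not at hc
    have h1 : D = ⊥ := (Subgroup.eq_bot_iff_forall D).2 hc
    have h2 := h.card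
    rw [h1, Subgroup.card_bot] at h2
    norm_num at h2
  obtain ⟨d1, hd1, hn1⟩ := hex
  obtain ⟨d2, hd2, d3, hd3, hn2, hn3, h12, h13, h23, hall⟩ := orbits h hy h5 hf hd1 hn1
  obtain ⟨A, a1, a2, a3, e1, e2, e3, eA, eV, hl⟩ := hTR d1 d2 d3 hd1 hd2 hd3 hn1 hn2 hn3 h12 h13 h23
  rw [hV] at eV
  have hcj : ∀ (i : ℕ) (t : S), mi ρ (y ^ i * t * (y ^ i)⁻¹) = mi ρ t := fun i t => mi_conj ρ _ t
  -- the conjugacy in the other direction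
  have hl' : ∀ l : D →* ℤˣ, l ≠ 1 → wt ρ D l = a1 ∨ wt ρ D l = a2 ∨ wt ρ D l = a3 := by
    intro l hl0
    obtain ⟨a, ha, e⟩ := hl l hl0
    rcases ha with ha | ha | ha
    · exact Or.inl (by rw [e, ha])
    · exact Or.inr (Or.inl (by rw [e, ha]))
    · exact Or.inr (Or.inr (by rw [e, ha]))
  have one : ∀ (t : S) (n m : ℕ), mi ρ t = n → m ≠ n → (∀ d ∈ D, d ≠ 1 → (∃ i : ℕ, d = y ^ i * t * (y ^ i)⁻¹) ∨
      mi ρ d = m) → ∀ d ∈ D, d ≠ 1 → (mi ρ d = n ↔ ∃ i : ℕ, d = y ^ i * t * (y ^ i)⁻¹) := by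
    intro t n m ht hmn hd d hd0 hd1'
    constructor
    · intro h1
      rcases hd d hd0 hd1' with h2 | h2
      · exact h2
      · exact (hmn (by rw [← h2, h1])).elim
    · rintro ⟨i, rfl⟩
      rw [hcj, ht]
  rcases hm d1 hd1 hn1 with m1 | m1 <;> rcases hm d2 hd2 hn2 with m2 | m2 <;> rcases hm d3 hd3 hn3 with m3 | m3
  · -- 112 112 112
    left
    refine ⟨fun d hd hd0 => ?_, by omega, fun l hl0 => by rcases hl' l hl0 with h1 | h1 | h1 <;> omega⟩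
    rcases hall d hd hd0 with ⟨i, rfl⟩ | ⟨i, rfl⟩ | ⟨i, rfl⟩
    · rw [hcj, m1]
    · rw [hcj, m2]
    · rw [hcj, m3]
  · -- 112 112 128
    right; left
    refine ⟨d3, hd3, hn3, one d3 128 112 m3 (by norm_num) fun d hd hd0 => ?_, by omega,
      fun l hl0 => by rcases hl' l hl0 with h1 | h1 | h1 <;> omega⟩
    rcases hall d hd hd0 with ⟨i, rfl⟩ | ⟨i, rfl⟩ | ⟨i, rfl⟩
    · right; rw [hcj, m1]
    · right; rw [hcj, m2]
    · exact Or.inl ⟨i, rfl⟩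
  · right; left
    refine ⟨d2, hd2, hn2, one d2 128 112 m2 (by norm_num) fun d hd hd0 => ?_, by omega,
      fun l hl0 => by rcases hl' l hl0 with h1 | h1 | h1 <;> omega⟩
    rcases hall d hd hd0 with ⟨i, rfl⟩ | ⟨i, rfl⟩ | ⟨i, rfl⟩
    · right; rw [hcj, m1]
    · exact Or.inl ⟨i, rfl⟩
    · right; rw [hcj, m3]
  · -- 112 128 128
    right; right; left
    refine ⟨d1, hd1, hn1, one d1 112 128 m1 (by norm_num) fun d hd hd0 => ?_, by omega,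
      fun l hl0 => by rcases hl' l hl0 with h1 | h1 | h1 <;> omega⟩
    rcases hall d hd hd0 with ⟨i, rfl⟩ | ⟨i, rfl⟩ | ⟨i, rfl⟩
    · exact Or.inl ⟨i, rfl⟩
    · right; rw [hcj, m2]
    · right; rw [hcj, m3]
  · right; left
    refine ⟨d1, hd1, hn1, one d1 128 112 m1 (by norm_num) fun d hd hd0 => ?_, by omega,
      fun l hl0 => by rcases hl' l hl0 with h1 | h1 | h1 <;> omega⟩
    rcases hall d hd hd0 with ⟨i, rfl⟩ | ⟨i, rfl⟩ | ⟨i, rfl⟩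
    · exact Or.inl ⟨i, rfl⟩
    · right; rw [hcj, m2]
    · right; rw [hcj, m3]
  · right; right; left
    refine ⟨d2, hd2, hn2, one d2 112 128 m2 (by norm_num) fun d hd hd0 => ?_, by omega,
      fun l hl0 => by rcases hl' l hl0 with h1 | h1 | h1 <;> omega⟩
    rcases hall d hd hd0 with ⟨i, rfl⟩ | ⟨i, rfl⟩ | ⟨i, rfl⟩
    · right; rw [hcj, m1]
    · exact Or.inl ⟨i, rfl⟩
    · right; rw [hcj, m3]
  · right; right; left
    refine ⟨d3, hd3, hn3, one d3 112 128 m3 (by norm_num) fun d hd hd0 => ?_, by omega,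
      fun l hl0 => by rcases hl' l hl0 with h1 | h1 | h1 <;> omega⟩
    rcases hall d hd hd0 with ⟨i, rfl⟩ | ⟨i, rfl⟩ | ⟨i, rfl⟩
    · right; rw [hcj, m1]
    · right; rw [hcj, m2]
    · exact Or.inl ⟨i, rfl⟩
  · -- 128 128 128
    right; right; right
    refine ⟨fun d hd hd0 => ?_, by omega, fun l hl0 => by rcases hl' l hl0 with h1 | h1 | h1 <;> omega⟩
    rcases hall d hd hd0 with ⟨i, rfl⟩ | ⟨i, rfl⟩ | ⟨i, rfl⟩
    · rw [hcj, m1]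
    · rw [hcj, m2]
    · rw [hcj, m3]

end Abs

end Cfsg.Agent.H196.KS
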