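import Cfsg.Agent.H196.KS.PatE8
import Cfsg.Agent.H196.KS.DimE8
import Cfsg.Agent.H988.KS.Weight

/-!
# S4577, row `E₈(q)`, `q` odd: the four trace patterns AAA, AAB, ABB, BBB of `D` (helper196)
-/

set_option autoImplicit false
set_option linter.unusedSectionVars false

namespace Cfsg.Agent.H196.KS

open CoxeterSystem Cfsg Cfsg.Lie Cfsg.Lie.ChevalleyDatum
open Cfsg.Agent.ChevalleyStructure Cfsg.Agent.ChevalleyStructure.Elts Cfsg.Agent.ChevalleyStructure.CoxeterGeom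
  Cfsg.Agent.ChevalleyStructure.CoxeterGeomTypes Cfsg.Agent.ChevalleyStructure.NPerm
open Cfsg.Agent.Tits.Roots Cfsg.Agent.Tits.Core Cfsg.Agent.Nodes Cfsg.Agent.Nodes.Reps Cfsg.Agent.Nodes.BNOf
  Cfsg.Agent.Nodes.RGDChev Cfsg.Agent.Nodes.Bruhat Cfsg.Agent.Nodes.NormalForm
open Cfsg.Agent.KFacts.RgdField Cfsg.Agent.KFacts.RgdChevCoord
open Cfsg.Agent.BpExc Cfsg.Agent.BpExc.TorCent Cfsg.Agent.BpExc.TorChev Cfsg.Agent.BpExc.Tow
  Cfsg.Agent.BpExc.TowChev Cfsg.Agent.GpExc.Field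
open Cfsg.Agent.H167.KKL Cfsg.Agent.H749.KKL
open Cfsg.Agent.H392.KKL (rho finrank_conj)
open Cfsg.Agent.H613.KS

theorem trFor {S : Type*} [Group S] {D : Subgroup S} (h : E16 D) {y : S} (hy : Five D y)
    {k : Type*} [Field k] (h2 : (2 : k) ≠ 0) {V : Type*} [AddCommGroup V] [Module k V] [FiniteDimensional k V]
    (ρ : S →* Module.End k V) : TRFor D y ρ := fun _ _ _ h1 h2' h3 n1 n2 n3 h12 h13 h23 =>
  H988.KS.Weight.TR h hy h2 ρ h1 h2' h3 n1 n2 n3 h12 h13 h23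

/-- **the four patterns**, abstract form without `TR` -/
theorem patterns' {S : Type*} [Group S] {k : Type*} [Field k] (h2 : (2 : k) ≠ 0) {V : Type*} [AddCommGroup V]
    [Module k V] [FiniteDimensional k V] {D : Subgroup S} (h : E16 D) {y : S} (hy : Five D y)
    (ρ : S →* Module.End k V)
    (hV : Module.finrank k V = 248) (hm : ∀ d ∈ D, d ≠ 1 → mi ρ d = 112 ∨ mi ρ d = 128) :
    ((∀ d ∈ D, d ≠ 1 → mi ρ d = 112) ∧ cd ρ D = 38 ∧ ∀ l : D →* ℤˣ, l ≠ 1 → wt ρ D l = 14) ∨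
    (∃ t ∈ D, t ≠ 1 ∧ (∀ d ∈ D, d ≠ 1 → (mi ρ d = 128 ↔ ∃ i : ℕ, d = y ^ i * t * (y ^ i)⁻¹)) ∧ cd ρ D = 28 ∧
      ∀ l : D →* ℤˣ, l ≠ 1 → wt ρ D l = 12 ∨ wt ρ D l = 20) ∨
    (∃ t ∈ D, t ≠ 1 ∧ (∀ d ∈ D, d ≠ 1 → (mi ρ d = 112 ↔ ∃ i : ℕ, d = y ^ i * t * (y ^ i)⁻¹)) ∧ cd ρ D = 18 ∧
      ∀ l : D →* ℤˣ, l ≠ 1 → wt ρ D l = 10 ∨ wt ρ D l = 18) ∨
    ((∀ d ∈ D, d ≠ 1 → mi ρ d = 128) ∧ cd ρ D = 8 ∧ ∀ l : D →* ℤˣ, l ≠ 1 → wt ρ D l = 16) := by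
  refine patterns h hy.norm ?_ ?_ ρ hV hm (trFor h hy h2 ρ)
  · intro d hd
    have h1 := H988.KS.Weight.pow_five h hy hd
    calc y ^ 5 * d = y ^ 5 * d * (y ^ 5)⁻¹ * y ^ 5 := by group
      _ = d * y ^ 5 := by rw [h1]
  · intro d hd hd1 hc
    apply hd1
    refine H988.KS.Weight.eq_one_of_fixed h hy hd ?_
    rw [hc, mul_inv_cancel_right]

section Main

variable (hp : IsType chevE8 8 CoxeterMatrix.E₈) (p : ℕ) [Fact p.Prime] {F : Type} [Field F] [Fintype F]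
  {k : Type} [Field k] [IsAlgClosed k] [Algebra F k] [CharP k p]

/-- the representation of `E₈(F)` on the Lie algebra over `k` -/
noncomputable def rk : ↥(chevE8.group F) →* Module.End k (chevE8.Idx → k) :=
  (rho chevE8 k).comp (emb hp.inList (algebraMap F k))

theorem rk_apply (d : ↥(chevE8.group F)) : rk hp (k := k) d = rho chevE8 k (emb hp.inList (algebraMap F k) d) := rfl

include p in
/-- an involution of `E₈(F)`: classical (24, 112) or of type `D8` (-8, 128) -/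
theorem inv_cases' (hk : LocFin k) (hp2 : p ≠ 2) {d : ↥(chevE8.group F)} (hd : d * d = 1) (h1 : d ≠ 1) :
    (trL chevE8 (emb hp.inList (algebraMap F k) d) = 24 ∧ mi (rk hp (k := k)) d = 112) ∨
      (trL chevE8 (emb hp.inList (algebraMap F k) d) = -8 ∧ mi (rk hp (k := k)) d = 128) := by
  refine inv_cases hp p hk hp2 (x := emb hp.inList (algebraMap F k) d) (by rw [← map_mul, hd, map_one]) ?_
  intro h
  exact h1 (emb_injective hp.inList (algebraMap F k) (by rw [h, map_one]))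

include p in
theorem two_ne' (hp2 : p ≠ 2) : (2 : k) ≠ 0 := by
  have h3 : ((2 : ℕ) : k) ≠ 0 := by
    intro h
    rw [CharP.cast_eq_zero_iff k p] at h
    exact hp2 ((Nat.prime_dvd_prime_iff_eq Fact.out Nat.prime_two).1 h)
  exact_mod_cast h3

include p in
theorem tr_iff (hk : LocFin k) (hp2 : p ≠ 2) {d : ↥(chevE8.group F)} (hd : d * d = 1) (h1 : d ≠ 1) :
    (trL chevE8 (emb hp.inList (algebraMap F k) d) = 24 ↔ mi (rk hp (k := k)) d = 112) ∧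
      (trL chevE8 (emb hp.inList (algebraMap F k) d) = -8 ↔ mi (rk hp (k := k)) d = 128) := by
  have h2 := two_ne' (k := k) p hp2
  have h3 : (24 : k) ≠ -8 := by
    intro h
    have h4 : (2 : k) ^ 5 = 0 := by linear_combination h
    exact h2 (pow_eq_zero_iff (by norm_num) |>.1 h4)
  rcases inv_cases' hp p hk hp2 hd h1 with ⟨e1, e2⟩ | ⟨e1, e2⟩
  · rw [e1, e2]
    exact ⟨by simp, by simp [h3]⟩
  · rw [e1, e2]
    exact ⟨by simp [h3.symm], by simp⟩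

include p in
/-- **the four patterns** AAA, AAB, ABB, BBB: trace on the Lie algebra over `k`, dimensions of `C_L(D)` and of the weight
spaces of `D` -/
theorem pat_E8 (hk : LocFin k) (hp2 : p ≠ 2) {D : Subgroup ↥(chevE8.group F)} (h : E16 D) {y : ↥(chevE8.group F)}
    (hy : Five D y) :
    ((∀ d ∈ D, d ≠ 1 → trL chevE8 (emb hp.inList (algebraMap F k) d) = 24) ∧ cd (rk hp (k := k)) D = 38 ∧
      ∀ l : D →* ℤˣ, l ≠ 1 → wt (rk hp (k := k)) D l = 14) ∨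
    (∃ t ∈ D, t ≠ 1 ∧ (∀ d ∈ D, d ≠ 1 → (trL chevE8 (emb hp.inList (algebraMap F k) d) = -8 ↔
        ∃ i : ℕ, d = y ^ i * t * (y ^ i)⁻¹)) ∧
      (∀ d ∈ D, d ≠ 1 → (trL chevE8 (emb hp.inList (algebraMap F k) d) = 24 ↔
        ¬ ∃ i : ℕ, d = y ^ i * t * (y ^ i)⁻¹)) ∧ cd (rk hp (k := k)) D = 28 ∧
      ∀ l : D →* ℤˣ, l ≠ 1 → wt (rk hp (k := k)) D l = 12 ∨ wt (rk hp (k := k)) D l = 20) ∨
    (∃ t ∈ D, t ≠ 1 ∧ (∀ d ∈ D, d ≠ 1 → (trL chevE8 (emb hp.inList (algebraMap F k) d) = 24 ↔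
        ∃ i : ℕ, d = y ^ i * t * (y ^ i)⁻¹)) ∧
      (∀ d ∈ D, d ≠ 1 → (trL chevE8 (emb hp.inList (algebraMap F k) d) = -8 ↔
        ¬ ∃ i : ℕ, d = y ^ i * t * (y ^ i)⁻¹)) ∧ cd (rk hp (k := k)) D = 18 ∧
      ∀ l : D →* ℤˣ, l ≠ 1 → wt (rk hp (k := k)) D l = 10 ∨ wt (rk hp (k := k)) D l = 18) ∨
    ((∀ d ∈ D, d ≠ 1 → trL chevE8 (emb hp.inList (algebraMap F k) d) = -8) ∧ cd (rk hp (k := k)) D = 8 ∧
      ∀ l : D →* ℤˣ, l ≠ 1 → wt (rk hp (k := k)) D l = 16) := by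
  have h2 := two_ne' (k := k) p hp2
  have hV : Module.finrank k (chevE8.Idx → k) = 248 := by
    rw [Module.finrank_fintype_fun_eq_card]
    show Fintype.card (Fin chevE8.rank ⊕ Fin chevE8.nroots) = 248
    rw [Fintype.card_sum, Fintype.card_fin, Fintype.card_fin, nroots_E8]
    rfl
  have ht := fun (d : ↥(chevE8.group F)) (hd : d ∈ D) (hd1 : d ≠ 1) =>
    tr_iff hp (k := k) p hk hp2 (h.inv d hd) hd1
  have hc := fun (d : ↥(chevE8.group F)) (hd : d ∈ D) (hd1 : d ≠ 1) =>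
    inv_cases' hp (k := k) p hk hp2 (h.inv d hd) hd1
  rcases patterns' h2 h hy (rk hp (k := k)) hV (fun d hd hd1 => (hc d hd hd1).imp And.right And.right) with
    ⟨e1, e2, e3⟩ | ⟨t, htD, ht1, e1, e2, e3⟩ | ⟨t, htD, ht1, e1, e2, e3⟩ | ⟨e1, e2, e3⟩
  · exact Or.inl ⟨fun d hd hd1 => (ht d hd hd1).1.2 (e1 d hd hd1), e2, e3⟩
  · refine Or.inr (Or.inl ⟨t, htD, ht1, fun d hd hd1 => ?_, fun d hd hd1 => ?_, e2, e3⟩)
    · rw [(ht d hd hd1).2, e1 d hd hd1]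
    · rw [(ht d hd hd1).1, ← e1 d hd hd1]
      rcases hc d hd hd1 with ⟨-, h3⟩ | ⟨-, h3⟩ <;> rw [h3] <;> simp
  · refine Or.inr (Or.inr (Or.inl ⟨t, htD, ht1, fun d hd hd1 => ?_, fun d hd hd1 => ?_, e2, e3⟩))
    · rw [(ht d hd hd1).1, e1 d hd hd1]
    · rw [(ht d hd hd1).2, ← e1 d hd hd1]
      rcases hc d hd hd1 with ⟨-, h3⟩ | ⟨-, h3⟩ <;> rw [h3] <;> simp
  · exact Or.inr (Or.inr (Or.inr ⟨fun d hd hd1 => (ht d hd hd1).2.2 (e1 d hd hd1), e2, e3⟩))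

end Main

end Cfsg.Agent.H196.KS
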